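import Mathlib

/-!
# Data of a coset enumeration
-/

set_option autoImplicit false

namespace Cfsg.Agent.Lib.KnownSimple.MultM.L33G

/-- Generated data. -/
def par0 : ℕ := 0x987654321000
/-- Generated data. -/
def gix0 : ℕ := 0xccc
/-- Generated data. -/
def dp0 : ℕ := 0xd6c8da448
/-- Generated data. -/
def fa0 : ℕ := 0xbaa987654321b98765432100
/-- Generated data. -/
def fl0 : ℕ := 0xc66666
/-- Generated data. -/
def fb0 : ℕ := 0x98b765432100aba987654321
/-- Generated data. -/
def fk0 : ℕ := 0x6d24da4da800000000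
/-- Generated data. -/
def po0 : ℕ := 0xb56939460f7358b000000000000000
/-- Generated data. -/
def pc0 : ℕ := 0x111111111111b00000000000
/-- Generated data. -/
def pa0 : ℕ := 0x52568398a418820520c410033adf3
/-- Generated data. -/
def can0 : ℕ := 0xba9876543210
/-- Generated data. -/
def tb0_0 : ℕ := 0xab7698325401
/-- Generated data. -/
def fi0_0 : ℕ := 0x5d69341e0f20d80
/-- Generated data. -/
def tb0_1 : ℕ := 0x98ba54761032
/-- Generated data. -/
def fi0_1 : ℕ := 0xbd949944c573441

end Cfsg.Agent.Lib.KnownSimple.MultM.L33G
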