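import Mathlib

/-!
# Data of a coset enumeration
-/

set_option autoImplicit false

namespace Cfsg.Agent.Lib.KnownSimple.MultM.L33G

/-- Generated data. -/
def par1 : ℕ := 0x87665543321100
/-- Generated data. -/
def gix1 : ℕ := 0x1492148
/-- Generated data. -/
def dp1 : ℕ := 0x2d9248db488
/-- Generated data. -/
def fa1 : ℕ := 0xdbb8653212416a3735c59dd89c7b6658543342121000
/-- Generated data. -/
def fl1 : ℕ := 0x808104000800407180018c163020b180c60410000080800200102020010004040820008080
/-- Generated data. -/
def fb1 : ℕ := 0x8d653311022466a1753c5dbdcacbba98876544322100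
/-- Generated data. -/
def fk1 : ℕ := 0x24334232432224433422a6c09b0700080000d0050011
/-- Generated data. -/
def po1 : ℕ := 0xf9efd79f1dfb75e9cb86ed9ab466c98b05ea51de3c629931b366cd9020408100a142800000000
/-- Generated data. -/
def pc1 : ℕ := 0x11111111122222222222cbb0bb0b000b0000b0050000
/-- Generated data. -/
def pa1 : ℕ := 0x285478b12202830484320077051e1c744d9256c299225c698105c9d3a5387d52c568552d505959e24282030a2c99f54a0c9620283890c2c99f344050404143881a551a22830304020c28b2674f12141c68f18185933e5880a080c0830a2c897182430406041810a1c6860804287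
/-- Generated data. -/
def can1 : ℕ := 0xdb8653210
/-- Generated data. -/
def tb1_0 : ℕ := 0x678534120
/-- Generated data. -/
def fi1_0 : ℕ := 0x2b4147e62240c0
/-- Generated data. -/
def tb1_1 : ℕ := 0x854761230
/-- Generated data. -/
def fi1_1 : ℕ := 0x16a683cb962141
/-- Generated data. -/
def tb1_2 : ℕ := 0x786345201
/-- Generated data. -/
def fi1_2 : ℕ := 0x15a8c9da2448c2

end Cfsg.Agent.Lib.KnownSimple.MultM.L33G
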