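import Mathlib

/-!
# Data of a coset enumeration
-/

set_option autoImplicit false

namespace Cfsg.Agent.Lib.KnownSimple.MultM.L33G

/-- Generated data. -/
def par2 : ℕ := 0xc
/-- Generated data. -/
def gix2 : ℕ := 0x8c
/-- Generated data. -/
def dp2 : ℕ := 0xa4
/-- Generated data. -/
def fa2 : ℕ := 0xe9bf6500
/-- Generated data. -/
def fl2 : ℕ := 0x9387b1e4
/-- Generated data. -/
def fb2 : ℕ := 0x74bbe940
/-- Generated data. -/
def fk2 : ℕ := 0x432578b6090a0111
/-- Generated data. -/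
def po2 : ℕ := 0xdf6d74a605d2489240000000
/-- Generated data. -/
def pc2 : ℕ := 0x1111b99509090000
/-- Generated data. -/
def pa2 : ℕ := 0x749469392fab92b93973524c13adb2724c328c275b8c53bd461846119d661846118467
/-- Generated data. -/
def can2 : ℕ := 0xe4
/-- Generated data. -/
def tb2_0 : ℕ := 0xd8
/-- Generated data. -/
def fi2_0 : ℕ := 0xad50
/-- Generated data. -/
def tb2_1 : ℕ := 0xb4
/-- Generated data. -/
def fi2_1 : ℕ := 0x9e41
/-- Generated data. -/
def tb2_2 : ℕ := 0x6c
/-- Generated data. -/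
def fi2_2 : ℕ := 0xfb72
/-- Generated data. -/
def tb2_3 : ℕ := 0xe1
/-- Generated data. -/
def fi2_3 : ℕ := 0x86c3

end Cfsg.Agent.Lib.KnownSimple.MultM.L33G
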