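import Cfsg.Agent.Lib.KnownSimple.MultM.L33G.Pres
import Cfsg.Agent.Lib.KnownSimple.MultM.L33G.Data1_0

/-!
# A coset enumeration
-/

set_option autoImplicit false

namespace Cfsg.Agent.Lib.KnownSimple.MultM.L33G

open Cfsg Cfsg.Spor Cfsg.Agent.Lib.Compute Cfsg.Agent.Lib.KnownSimple.PE Cfsg.Agent.Lib.KnownSimple.Leech
open Cfsg.Agent.Lib.KnownSimple Cfsg.Agent.Lib.KnownSimple.AutRigid Cfsg.Agent.Lib.KnownSimple.Pres

/-- A coset enumeration. -/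
noncomputable def C1 : Cert where
  eL := 99
  ig := fun a => a
  words := [[0, 0], [1, 1], [2, 2], [2, 0, 2, 0, 2, 0], [1, 2, 1, 2, 1, 2, 1, 2, 1, 2, 1, 2], [0, 1, 2, 1, 0, 1, 2, 1, 0, 1, 2, 1], [2, 1, 0, 1, 2, 1, 0, 1, 2, 1, 0, 1], [0, 1, 0, 1, 2, 0, 2, 1, 2, 1, 0, 2], [1, 0, 1, 2, 0, 2, 1, 2, 1, 0, 2, 0], [2, 0, 2, 1, 2, 1, 0, 2, 0, 1, 0, 1], [2, 1, 2, 1, 0, 2, 0, 1, 0, 1, 2, 0], [2, 1, 0, 2, 0, 1, 0, 1, 2, 0, 2, 1]]
  sub := fun x => Nat.blt x 2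
  par := pget 4 15 par1
  gix := pget 2 3 gix1
  dp := pget 3 7 dp1
  fa := pget 4 15 fa1
  fl := pget 7 127 fl1
  fb := pget 4 15 fb1
  fk := pget 4 15 fk1
  po := pget 7 127 po1
  pc := pget 4 15 pc1
  pa := pget 7 127 pa1
  can := pget 4 15 can1
  t := cns (pget 4 15 tb1_0) (cns (pget 4 15 tb1_1) (cns (pget 4 15 tb1_2) (fun _ => 0)))
  fid := cns (pget 6 63 fi1_0) (cns (pget 6 63 fi1_1) (cns (pget 6 63 fi1_2) (fun _ => 0)))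

/-- The number of facts. -/
abbrev K1 : ℕ := 44

set_option maxRecDepth 100000 in
theorem words1 : wordsOK ([] :: S.L.relW) C1.words = true := by decide +kernel

end Cfsg.Agent.Lib.KnownSimple.MultM.L33G
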