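import Cfsg.Agent.Lib.KnownSimple.MultM.L33G.ValD0
import Cfsg.Agent.Lib.KnownSimple.MultM.L33G.Rel
import Cfsg.Agent.Lib.KnownSimple.MultC.ValMain

/-!
# The table of values
-/

set_option autoImplicit false

namespace Cfsg.Agent.Lib.KnownSimple.MultM.L33G

open Cfsg Cfsg.Spor Cfsg.Agent.Lib.Compute Cfsg.Agent.Lib.KnownSimple.PE Cfsg.Agent.Lib.KnownSimple.Leech
open Cfsg.Agent.Lib.KnownSimple Cfsg.Agent.Lib.KnownSimple.AutRigid Cfsg.Agent.Lib.KnownSimple.Pres
open Cfsg.Agent.Lib.KnownSimple.MultC


set_option maxRecDepth 1000000 in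
/-- The table of values. -/
def tv : ZI := (.node 0 1 0x0 0x0 tv0 tv1)
/-- The edges of the parameters. -/
def peL : List ℕ := [21,39,80]
/-- The mask. -/
def mskM : ℕ := 0xffff0000ffff0000ffff0000ffff0000ffff0000ffff0000ffff0000ffff0000ffff0000ffff0000ffff0000ffff0000ffff0000ffff0000ffff0000ffff0000ffff0000ffff0000ffff0000ffff0000ffff0000ffff0000ffff0000ffff0000ffff0000ffff0000
/-- A power of the base. -/
def cKK : ℕ := 0x10000000000000000000000000000000000000000000000000000000000000000000000000000000000000000000000000000000000000000000000000000000000000000000000000000000000000000000000000000000000000000000000000000000000000000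
/-- The test of an edge. -/
noncomputable abbrev fe : ℕ → Bool := chkEdgeG 4294967296 mskM cKK τ d n RL 28 3 23 (lookP parT) (lookP genT) (lg 0 peL) tv

end Cfsg.Agent.Lib.KnownSimple.MultM.L33G
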